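import Cfsg.Agent.H845.TW.Eng
import Cfsg.Agent.H843.TC6.Row

/-!
# S2452 for `PSp_2n(q)`, `q` odd, `4 ∣ n`: the elements `(X_{n-1}, 1)` are conjugate (helper383 for helper845)

* `l1_conj`, `l1_pow`, `l1_not_scalar`.
* `Or1` : every isometry `g` or `-g` is a product of two such elements.
* `pp_psp_four_of` : the row from `Or1`.
-/

set_option autoImplicit false
open Polynomial

noncomputable section

namespace Cfsg.Agent.H383.TW

open Cfsg Cfsg.Agent.H144 Cfsg.Agent.H144.War Cfsg.Agent.H144.TC Cfsg.Agent.H843.TC6 Cfsg.Agent.H845.TW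

section

variable {F V K : Type*} [Field F] [AddCommGroup V] [Module F V] [FiniteDimensional F V] [Field K] [Algebra F K]
  [FiniteDimensional F K]

/-- `P = E ⊕ F p` -/
theorem exists_prod {P E : Submodule F V} {p : V} (hE : E ⊔ Submodule.span F {p} = P)
    (hfr : Module.finrank F E + 1 = Module.finrank F P) :
    ∃ ψ : (E × F) ≃ₗ[F] P, ∀ (e : E) (c : F), (ψ (e, c) : V) = e + c • p := by
  obtain ⟨hEP, hpP⟩ := ep_le hE
  let ψ₀ : (E × F) →ₗ[F] P := (LinearMap.coprod E.subtype (LinearMap.toSpanSingleton F V p)).codRestrict P (by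
    rintro ⟨e, c⟩
    exact P.add_mem (hEP e.2) (P.smul_mem c hpP))
  have hs : Function.Surjective ψ₀ := by
    rintro ⟨v, hv⟩
    obtain ⟨e, he, c, rfl⟩ := mem_ep hE hv
    exact ⟨(⟨e, he⟩, c), rfl⟩
  have hd : Module.finrank F (E × F) = Module.finrank F P := by
    rw [Module.finrank_prod, Module.finrank_self, hfr]
  have hi : Function.Injective ψ₀ := (LinearMap.injective_iff_surjective_of_finrank_eq_finrank hd).2 hs
  exact ⟨LinearEquiv.ofBijective ψ₀ ⟨hi, hs⟩, fun e c => rfl⟩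

/-- the type of an element `(x, 1)` -/
theorem hasType_of {B : LinearMap.BilinForm F V} {X : V ≃ₗ[F] V} {P Q E : Submodule F V} {p : V} (hI : Iso B X)
    (hP : Orth B P P) (hQ : Orth B Q Q) (hPQ : P ⊔ Q = ⊤) (hXQ : ∀ v ∈ Q, X v ∈ Q)
    (hE : E ⊔ Submodule.span F {p} = P) (hXp : X p = p)
    (hfr : Module.finrank F E + 1 = Module.finrank F P) {M : Type*} [AddCommGroup M] [Module F M] (ξ : M ≃ₗ[F] M)
    (φ : E ≃ₗ[F] M) (hφ : ∀ v : E, X v = (φ.symm (ξ (φ v)) : E)) :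
    HasType B (ξ.prodCongr (LinearEquiv.refl F F)) X := by
  obtain ⟨ψ, hψ⟩ := exists_prod hE hfr
  refine ⟨hI, P, Q, hP, hQ, hPQ, hXQ, ψ.symm.trans (φ.prodCongr (LinearEquiv.refl F F)), fun v => ?_⟩
  obtain ⟨⟨e, c⟩, rfl⟩ := ψ.surjective v
  rw [tr_apply]
  have h1 : (ψ.symm.trans (φ.prodCongr (LinearEquiv.refl F F))).symm ((ξ.prodCongr (LinearEquiv.refl F F))
      ((ψ.symm.trans (φ.prodCongr (LinearEquiv.refl F F))) (ψ (e, c)))) = ψ (φ.symm (ξ (φ e)), c) := by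
    rw [LinearEquiv.trans_apply, ψ.symm_apply_apply]
    rfl
  rw [h1, hψ, hψ, map_add, map_smul, hXp, hφ]

omit [FiniteDimensional F K] in
theorem gr_aeval {f : F[X]} {R : Submodule F V} {Y : V ≃ₗ[F] V} (hY : ∀ v ∈ R, Y v ∈ R)
    (hR : ∀ v ∈ R, aeval (Y : Module.End F V) f v = 0) :
    aeval ((gr Y R hY : R ≃ₗ[F] R) : Module.End F R) f = 0 := by
  ext v
  have h4 := aeval_restrict (X := (Y : Module.End F V)) (x := ((gr Y R hY : R ≃ₗ[F] R) : Module.End F R))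
    (fun v => rfl) f v
  rw [← h4, hR v v.2]
  rfl

theorem l1_conj {s : ℕ} (_ : 2 ≤ s) {ξ : K} (hξ : Gx F s ξ) {B : LinearMap.BilinForm F V} (hB : Alt B) (hN : Nond B)
    {X X' : V ≃ₗ[F] V} (hX : L1 B (minpoly F ξ) X) (hX' : L1 B (minpoly F ξ) X') :
    ∃ u : V ≃ₗ[F] V, Iso B u ∧ X' = u * X * u⁻¹ := by
  obtain ⟨h0, hK, hdeg, -, -⟩ := hξ
  obtain ⟨hI, P, Q, E, p, hP, hQ, hPQ, hXQ, hE, hXE, hXp, hf, hfr⟩ := hX
  obtain ⟨hI', P', Q', E', p', hP', hQ', hPQ', hXQ', hE', hXE', hXp', hf', hfr'⟩ := hX'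
  have hfin : Module.finrank F E' = Module.finrank F E := by
    have h2 := finrank_two hB hN hP hQ hPQ
    have h3 := finrank_two hB hN hP' hQ' hPQ'
    omega
  obtain ⟨φ, hφ⟩ := exists_equiv (ξ := ξ) (by rw [hdeg, hK]) hfin (gr_aeval hXE' hf') (gr_aeval hXE hf)
  have h1 : HasType B ((gr X E hXE).prodCongr (LinearEquiv.refl F F)) X :=
    hasType_of hI hP hQ hPQ hXQ hE hXp hfr (gr X E hXE) (LinearEquiv.refl F E) fun v => rfl
  have h2 : HasType B ((gr X E hXE).prodCongr (LinearEquiv.refl F F)) X' :=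
    hasType_of hI' hP' hQ' hPQ' hXQ' hE' hXp' hfr' (gr X E hXE) φ fun v => by
      have h3 : φ.symm ((gr X E hXE) (φ v)) = gr X' E' hXE' v := by
        rw [LinearEquiv.symm_apply_eq]
        exact (hφ v).symm
      rw [h3]
      rfl
  exact h1.unique hB hN h2

omit [FiniteDimensional F K] in
theorem l1_pow {s : ℕ} {ξ : K} (_ : Gx F s ξ) {B : LinearMap.BilinForm F V} (hB : Alt B) (hN : Nond B)
    {X : V ≃ₗ[F] V} (hX : L1 B (minpoly F ξ) X) {N : ℕ} (hNξ : ξ ^ N = 1) : X ^ N = 1 := by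
  obtain ⟨hI, P, Q, E, p, hP, hQ, hPQ, hXQ, hE, hXE, hXp, hf, hfr⟩ := hX
  have hd : minpoly F ξ ∣ Polynomial.X ^ N - 1 := minpoly.dvd F ξ (by simp [hNξ])
  obtain ⟨t, ht⟩ := hd
  have h3 : ∀ (k : ℕ) (v : V), (X ^ k) v = ((X : Module.End F V) ^ k) v := by
    intro k
    induction k with
    | zero => intro v; rfl
    | succ k ih =>
      intro v
      rw [pow_succ, LinearEquiv.mul_apply, ih, pow_succ, Module.End.mul_apply]
      rfl
  have hp : ∀ k : ℕ, (X ^ k) p = p := by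
    intro k
    induction k with
    | zero => rfl
    | succ k ih => rw [pow_succ, LinearEquiv.mul_apply, hXp, ih]
  ext v
  have h1 := levi_unique hB hN hP hQ hPQ (Iso.pow hI N) (mem_pow hXQ N) 1 (one_mul 1) (fun v hv => by
    obtain ⟨e, he, c, rfl⟩ := mem_ep hE hv
    have h2 : aeval (X : Module.End F V) (Polynomial.X ^ N - 1 : F[X]) e = 0 := by
      rw [ht, mul_comm, map_mul, Module.End.mul_apply, hf e he, map_zero]
    rw [map_sub, map_pow, aeval_X, map_one, LinearMap.sub_apply, sub_eq_zero] at h2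
    have h4 : (X ^ N) e = e := by
      rw [h3, h2]
      rfl
    rw [one_smul, map_add, map_smul, hp, h4]) v
  rw [h1, one_smul]
  rfl

theorem l1_not_scalar {s : ℕ} (hs : 2 ≤ s) {ξ : K} (hξ : Gx F s ξ) {B : LinearMap.BilinForm F V} (hB : Alt B)
    (hN : Nond B) (hV : 4 ≤ Module.finrank F V) {X : V ≃ₗ[F] V} (hX : L1 B (minpoly F ξ) X) (c : F) :
    ¬ ∀ v, X v = c • v := by
  intro hc
  obtain ⟨h0, hK, hdeg, -, -⟩ := hξ
  obtain ⟨hI, P, Q, E, p, hP, hQ, hPQ, hXQ, hE, hXE, hXp, hf, hfr⟩ := hX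
  have h1 := finrank_two hB hN hP hQ hPQ
  have hEb : E ≠ ⊥ := by
    rintro rfl
    rw [finrank_bot] at hfr
    omega
  obtain ⟨v, hv, hv0⟩ := Submodule.exists_mem_ne_zero_of_ne_bot hEb
  have h2 := hf v hv
  have h3 : aeval (X : Module.End F V) (minpoly F ξ) v = (minpoly F ξ).eval c • v := by
    have h4 : ∀ k : ℕ, ((X : Module.End F V) ^ k) v = c ^ k • v := by
      intro k
      induction k with
      | zero => simp
      | succ k ih =>
        rw [pow_succ', Module.End.mul_apply, ih, map_smul]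
        have h5 : (X : Module.End F V) v = c • v := hc v
        rw [h5, smul_smul, pow_succ]
    induction (minpoly F ξ) using Polynomial.induction_on' with
    | add p q hp hq => rw [map_add, LinearMap.add_apply, hp, hq, eval_add, add_smul]
    | monomial k a =>
      rw [aeval_monomial, Module.algebraMap_end_eq_smul_id, Module.End.mul_apply, LinearMap.smul_apply,
        LinearMap.id_apply, h4, eval_monomial, smul_smul]
  rw [h3] at h2
  have h4 : (minpoly F ξ).eval c = 0 := (smul_eq_zero.1 h2).resolve_right hv0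
  have h5 := degree_eq_one_of_irreducible_of_root (minpoly.irreducible (Algebra.IsIntegral.isIntegral (R := F) ξ)) h4
  have h6 : (minpoly F ξ).natDegree = 1 := natDegree_eq_of_degree_eq_some (by exact_mod_cast h5)
  omega

end

/-- every isometry `g` or `-g` is a product of two elements `(X_{n-1}, 1)` -/
def Or1 : Prop := ∀ {F V K : Type} [Field F] [Finite F] [AddCommGroup V] [Module F V] [FiniteDimensional F V] [Field K]
  [Algebra F K] [FiniteDimensional F K] (_ : (2 : F) ≠ 0) {n : ℕ} (_ : 4 ∣ n) (_ : 4 ≤ n) {ξ : K} (_ : Gx F (n - 1) ξ)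
  {B : LinearMap.BilinForm F V} (_ : Alt B) (_ : Nond B) (_ : Module.finrank F V = 2 * n) {g : V ≃ₗ[F] V}
  (_ : Iso B g), CC1 B (minpoly F ξ) g ∨ CC1 B (minpoly F ξ) (ng g)

open Cfsg.Agent.H955 Cfsg.Agent.ClassicalGeometry.SympBasic in
theorem psp_cc1 (h : Or1) {F : Type} [Field F] [Finite F] {m : ℕ} (h2 : (2 : F) ≠ 0) (h4 : 4 ∣ m) (hm : 4 ≤ m)
    {K : Type} [Field K] [Algebra F K] [FiniteDimensional F K] {ξ : K} (hξ : Gx F (m - 1) ξ) {N : ℕ} (hN : ξ ^ N = 1) :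
    ∃ x : PSp m F, x ^ N = 1 ∧ x ≠ 1 ∧ ∀ g : PSp m F, ∃ u v : PSp m F, g = (u * x * u⁻¹) * (v * x * v⁻¹) := by
  have hS := isSp_sympBilin m F
  have hV : Module.finrank F (Fin m ⊕ Fin m → F) = 2 * m := by
    rw [Module.finrank_fintype_fun_eq_card, Fintype.card_sum, Fintype.card_fin]
    ring
  have key : ∀ {g : (Fin m ⊕ Fin m → F) ≃ₗ[F] (Fin m ⊕ Fin m → F)}, Iso (sympBilin m F) g →
      CC1 (sympBilin m F) (minpoly F ξ) g ∨ CC1 (sympBilin m F) (minpoly F ξ) (ng g) := fun {g} hg =>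
    h h2 h4 hm hξ hS.alt hS.nd hV hg
  obtain ⟨X₀, hX₀⟩ : ∃ X₀, L1 (sympBilin m F) (minpoly F ξ) X₀ := by
    rcases key (Iso.one _) with ⟨X, -, hX, -⟩ | ⟨X, -, hX, -⟩
    · exact ⟨X, hX⟩
    · exact ⟨X, hX⟩
  let x₀ : AH.Gm m F := ⟨X₀, hX₀.1⟩
  have hx₀ : x₀ ^ N = 1 := Subtype.ext (l1_pow hξ hS.alt hS.nd hX₀ hN)
  refine ⟨AH.pj m F x₀, by rw [← map_pow, hx₀, map_one], ?_, fun t => ?_⟩
  · intro h
    rw [AH.pj_eq_one_iff] at h
    obtain ⟨c, hc⟩ := h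
    exact l1_not_scalar (by omega) hξ hS.alt hS.nd (by omega) hX₀ c hc
  obtain ⟨g, rfl⟩ := AH.pj_surj t
  have fin : ∀ g' : AH.Gm m F, CC1 (sympBilin m F) (minpoly F ξ) g'.1 →
      ∃ u v : PSp m F, AH.pj m F g' = (u * AH.pj m F x₀ * u⁻¹) * (v * AH.pj m F x₀ * v⁻¹) := by
    rintro g' ⟨X, Z, hX, hZ, hXZ⟩
    obtain ⟨u, hu, hu'⟩ := l1_conj (by omega) hξ hS.alt hS.nd hX₀ hX
    obtain ⟨v, hv, hv'⟩ := l1_conj (by omega) hξ hS.alt hS.nd hX₀ hZ
    refine ⟨AH.pj m F ⟨u, hu⟩, AH.pj m F ⟨v, hv⟩, ?_⟩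
    rw [← map_inv, ← map_inv, ← map_mul, ← map_mul, ← map_mul, ← map_mul, ← map_mul]
    congr 1
    apply Subtype.ext
    rw [hXZ, hu', hv']
    rfl
  rcases key g.2 with h | h
  · exact fin g h
  · have h1 : AH.pj m F g = AH.pj m F ⟨ng g.1, ng_iso g.2⟩ := by
      have h1 : AH.pj m F (⟨ng g.1, ng_iso g.2⟩ * g⁻¹) = 1 := by
        rw [AH.pj_eq_one_iff]
        refine ⟨-1, fun v => ?_⟩
        rw [neg_one_smul]
        change ng g.1 (g.1⁻¹ v) = -v
        rw [ng_apply, app_inv]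
      rw [map_mul, map_inv, mul_inv_eq_one] at h1
      exact h1.symm
    rw [h1]
    exact fin _ h

/-- one class of prime order coprime to `6` -/
theorem psp_four_of (h : Or1) {m : ℕ} (h4 : 4 ∣ m) (hm : 4 ≤ m) (F : Type) [Field F] [Finite F] (h2 : (2 : F) ≠ 0) :
    ∃ (r : ℕ) (x : PSp m F), r.Prime ∧ Nat.Coprime r 6 ∧ orderOf x = r ∧
      ∀ g : PSp m F, ∃ u v : PSp m F, g = (u * x * u⁻¹) * (v * x * v⁻¹) := by
  have ho : Odd (m - 1) := by
    obtain ⟨c, rfl⟩ := h4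
    exact ⟨2 * c - 1, by omega⟩
  obtain ⟨r, hr, hr6, K, _, _, _, ξ, hξ, hξr⟩ := H311.TC6.xi_odd F (s := m - 1) (by omega) ho
  obtain ⟨x, hx, hx1, hc⟩ := psp_cc1 h h2 h4 hm hξ hξr
  refine ⟨r, x, hr, hr6, ?_, hc⟩
  rcases (Nat.dvd_prime hr).1 (orderOf_dvd_of_pow_eq_one hx) with h1 | h1
  · exact absurd (orderOf_eq_one_iff.1 h1) hx1
  · exact h1

/-- **the row `PSp_2m(q)`, `4 ∣ m`, from `Or1`** -/
theorem pp_psp_four_of (h : Or1) {m : ℕ} (h4 : 4 ∣ m) (hm : 4 ≤ m) (F : Type) [Field F] [Finite F]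
    (h2 : (2 : F) ≠ 0) : H494.TC.PP (PSp m F) := by
  obtain ⟨r, x, hr, hr6, ho, hc⟩ := psp_four_of h h4 hm F h2
  exact ⟨x, by rw [ho]; exact hr, by rw [ho]; exact hr6, fun g _ => hc g⟩

theorem row3_psp_four_of (h : Or1) {m : ℕ} (h4 : 4 ∣ m) (hm : 4 ≤ m) (F : Type) [Field F] [Finite F]
    (h2 : (2 : F) ≠ 0) : H210.TC.Row3 (PSp m F) := by
  obtain ⟨r, x, hr, hr6, ho, hc⟩ := psp_four_of h h4 hm F h2
  exact H210.TC.Row3.of_sq (x := x) (by rw [ho]; exact hr) (by rw [ho]; exact hr6) fun g _ => hc g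

end Cfsg.Agent.H383.TW
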